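import Cfsg.Agent.H7.C11.LK
import Cfsg.Agent.H5.C11.R
import Cfsg.Agent.H5.C11.TH

/-! The kernels of the centraliser of `σ` on the two eigenspaces. -/

set_option autoImplicit false
set_option linter.unusedSimpArgs false
set_option linter.unusedSectionVars false
set_option linter.unusedVariables false
set_option linter.style.haveILetI false

namespace Cfsg.Agent.H7.C11

open Matrix Subgroup Cfsg.Agent.H5.C11 Cfsg.Agent.H7 Cfsg.Agent.H8.C11 Cfsg.Agent.H5.T3 Cfsg.Agent.H5.C5

variable {F : Type*} [Field F] {p : ℕ} {ω : F} {M : Subgroup (GL (Fin 11) F)} (h : Hy p ω M)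
include h

theorem inj (g : CC M) (a : ru h.two M g = 1) (b : rv h.two M g = 1) : g = 1 :=
  CC_ext h.two (a.trans (map_one _).symm) (b.trans (map_one _).symm)

theorem LK' {Λ : Subgroup (CC M)} [Λ.Normal] (E : ∀ x ∈ Λ, x.1.1 * uu ω = uu ω * x.1.1 →
      (∃ k, x ^ 11 ^ k = 1) → IsScal (ru h.two M x).1 ∧ IsScal (rv h.two M x).1) :
    ∀ x ∈ Λ, IsScal (ru h.two M x).1 ∧ IsScal (rv h.two M x).1 := by
  haveI := h.fin
  obtain ⟨u, u1, u2, u3⟩ := h.exu
  obtain ⟨f, -, -, -, f1, f2, -⟩ := h.exφ'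
  exact LK (fh_of h) (fun hn e he _ hU _ hr rp r11 Q => fix_r (fh_of h) hn e he hU hr rp r11 Q) _ _ (inj h)
    (by decide) (by decide) u2 u3 f1 f2 (le_normalizer_of_normal (mem_top u)) (le_normalizer_of_normal (mem_top f))
    fun x hx c => E x hx (u1 ▸ congrArg (fun y : CC M => y.1.1) c)

variable (hn : ¬ SLin M)
include hn

theorem sc_sc (g : CC M) {a b : F} (e1 : (ru h.two M g).1 = a • 1) (e2 : (rv h.two M g).1 = b • 1) :
    a ^ 11 = 1 ∧ (g.1.1 = a • 1 ∨ g.1.1 = a • σ) := by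
  obtain ⟨u, u1, -, -⟩ := h.exu
  have c : g * u = u * g := CC_ext h.two (by rw [map_mul, map_mul]; exact Units.ext (IsScal.comm ⟨_, e1⟩ _))
    (by rw [map_mul, map_mul]; exact Units.ext (IsScal.comm ⟨_, e2⟩ _))
  obtain ⟨d0, d, e, k1, k2, k3, -⟩ := T_A h hn g (u1 ▸ congrArg (fun y : CC M => y.1.1) c)
  have l1 : a = d 0 := by simpa using congrFun (congrFun (e1.symm.trans k1) 0) 0
  have l2 : b = e 0 := by simpa using congrFun (congrFun (e2.symm.trans k2) 1) 1
  have t : b = a ∨ b = -a := by rw [l1, l2]; exact k3 0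
  have k := CC_det h.two g
  rw [h.det _ g.2.1, e1, e2] at k
  simp only [det_smul, det_one, Fintype.card_fin, mul_one] at k
  exact ⟨by rcases t with t | t <;> rw [t] at k <;> linear_combination -k,
    t.imp (CC_scal h.two e1 e2).1 (CC_scal h.two e1 e2).2⟩

/-- the kernel on `U` -/
theorem kerU1 (g : CC M) (e : ru h.two M g = 1) : g.1.1 = 1 ∨ g.1.1 = σ := by
  obtain ⟨-, b, hb⟩ := LK' h (Λ := (ru h.two M).ker) (fun x hx c ⟨k, hk⟩ => by
    obtain ⟨D, d1, d2⟩ := T_oddA h hn x c (Odd.pow (by decide)) hk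
    have k1 := ru_diag h.two d1
    rw [show ru h.two M x = 1 from hx] at k1
    have k2 : ∀ k, D (pl k 0) = 1 := fun k => by simpa using (congrFun (congrFun k1 k) k).symm
    have k3 := CC_det h.two x
    rw [h.det _ x.2.1, show ru h.two M x = 1 from hx, rv_diag h.two d1, det_diagonal, Fin.prod_univ_succ] at k3
    simp [k2] at k3
    refine ⟨⟨1, by rw [show ru h.two M x = 1 from hx]; simp⟩, 1, ?_⟩
    rw [rv_diag h.two d1, one_smul, ← diagonal_one]
    congr 1; ext i
    refine Fin.cases k3.symm (fun i => k2 i) i) g e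
  simpa using (sc_sc h hn g (a := 1) (by rw [e]; simp) hb).2

/-- elements scalar on `U` -/
theorem kerU (g : CC M) {a : F} (e : (ru h.two M g).1 = a • 1) :
    a ^ 11 = 1 ∧ (g.1.1 = a • 1 ∨ g.1.1 = a • σ) := by
  obtain ⟨u, u1, -, u2⟩ := h.exu
  obtain ⟨f, -, -, -, -, f2, -⟩ := h.exφ'
  have dg : ∀ g : CC M, (ru h.two M g).1 = a • 1 → (rv h.two M g).1.IsDiag := fun g e => by
    refine diag_of (fh_of h) (by decide) u2 ?_
    have e1 : ru h.two M (g⁻¹ * u * g * u⁻¹) = 1 := by
      rw [map_mul, map_mul, map_mul, map_inv, map_inv, mul_inv_eq_one, mul_assoc, inv_mul_eq_iff_eq_mul]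
      exact Units.ext (by simp [e])
    rcases kerU1 h hn _ e1 with k | k
    · have : g⁻¹ * u * g * u⁻¹ = 1 := Subtype.ext (Units.ext k)
      rw [mul_inv_eq_one, mul_assoc, inv_mul_eq_iff_eq_mul] at this
      rw [← map_mul, ← this, map_mul]
    · have k := rv_σ h.two k
      rw [map_mul, map_mul, map_mul, map_inv, map_inv, Units.val_mul, Units.mul_inv_eq_iff_eq_mul] at k
      have := congrArg (· ^ 11) k
      have u7 : (rv h.two M u).1 ^ 11 = 1 := by
        rw [u2, diagonal_pow, ← diagonal_one]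
        congr 1; ext i
        simp [← pow_mul, mul_comm _ 11, pow_mul ω 11, h.one11]
      simp only [Units.val_mul, Units.conj_pow', neg_one_mul, Odd.neg_pow (by decide : Odd 11), u7,
        mul_one, Units.inv_mul] at this
      have : (1 : F) = -1 := by simpa using congrFun (congrFun this 0) 0
      exact (h.two (by linear_combination this)).elim
  obtain ⟨b, hb⟩ := H2.S7.scal_of_diag f2 (dg g e) (by
    simpa only [map_mul, map_inv] using dg (f * g * f⁻¹) (by simp [e]))
  exact sc_sc h hn g e hb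

/-- the kernel on the even part -/
theorem kerV1 (g : CC M) (e : rv h.two M g = 1) : g = 1 := by
  obtain ⟨⟨a, ha⟩, -⟩ := LK' h (Λ := (rv h.two M).ker) (fun x hx c ⟨k, hk⟩ => by
    obtain ⟨D, d1, d2⟩ := T_oddA h hn x c (Odd.pow (by decide)) hk
    have k1 := rv_diag h.two d1
    rw [show rv h.two M x = 1 from hx] at k1
    have k2 : ∀ k : Fin 5, D (pl k 0) = 1 := fun k => by simpa using (congrFun (congrFun k1 k.succ) k.succ).symm
    refine ⟨⟨1, ?_⟩, 1, by rw [show rv h.two M x = 1 from hx]; simp⟩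
    rw [ru_diag h.two d1, one_smul, ← diagonal_one]
    congr 1; ext i
    exact k2 i) g e
  have k := CC_det h.two g
  rw [h.det _ g.2.1, e, ha] at k
  simp only [det_smul, det_one, Fintype.card_fin, mul_one, Units.val_one] at k
  have := pow_gcd_eq_one.2 ⟨k.symm, (kerU h hn g ha).1⟩
  rw [show Nat.gcd 5 11 = 1 from rfl, pow_one] at this
  exact inj h g (Units.ext (by rw [ha, this]; simp)) e

/-- elements scalar on the even part -/
theorem kerV (g : CC M) {b : F} (e : (rv h.two M g).1 = b • 1) :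
    ∃ a : F, (ru h.two M g).1 = a • 1 ∧ a ^ 11 = 1 ∧ (g.1.1 = a • 1 ∨ g.1.1 = a • σ) := by
  obtain ⟨u, u1, u2, -⟩ := h.exu
  obtain ⟨f, -, -, -, f1, -, -⟩ := h.exφ'
  have dg : ∀ g : CC M, (rv h.two M g).1 = b • 1 → (ru h.two M g).1.IsDiag := fun g e => by
    refine diag_of (fh_of h) (by decide) u2 ?_
    have this := kerV1 h hn (g⁻¹ * u * g * u⁻¹) (by
      rw [map_mul, map_mul, map_mul, map_inv, map_inv, mul_inv_eq_one, mul_assoc, inv_mul_eq_iff_eq_mul]
      exact Units.ext (by simp [e]))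
    rw [mul_inv_eq_one, mul_assoc, inv_mul_eq_iff_eq_mul] at this
    rw [← map_mul, ← this, map_mul]
  obtain ⟨a, ha⟩ := H2.S7.scal_of_diag f1 (dg g e) (by
    simpa only [map_mul, map_inv] using dg (f * g * f⁻¹) (by simp [e]))
  exact ⟨a, ha, sc_sc h hn g ha e⟩

end Cfsg.Agent.H7.C11
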