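import Cfsg.Agent.H5.C11.T
import Cfsg.Agent.H8.C7.L4

/-! Subgroups normalised by `SL₂(11)` in its Weil representation. -/

set_option autoImplicit false
set_option linter.unusedSimpArgs false
set_option linter.unusedSectionVars false
set_option linter.unusedVariables false
set_option linter.style.haveILetI false

namespace Cfsg.Agent.H7.C11

open Matrix Subgroup Finset Cfsg.Agent.H5.C11 Cfsg.Agent.H7
open scoped Pointwise

variable {F : Type*} [Field F] {p : ℕ} {ω : F} {n : Type} [Fintype n] [DecidableEq n]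

/-- `u` centralises the invariant `r`-subgroups -/
def FixR (p : ℕ) (ω : F) : Prop := ∀ {n : Type} [Fintype n] [DecidableEq n], Fintype.card n ≤ 6 →
  ∀ e : n → ℕ, (∀ i j, e i % 11 = e j % 11 → i = j) → ∀ {U : GL n F},
  U.1 = diagonal (fun i => ω ^ e i) → ∀ {r : ℕ}, r.Prime → r ≠ p → r ≠ 11 → ∀ Q : Subgroup (GL n F),
  IsPGroup r Q → (∀ x ∈ Q, U * x * U⁻¹ ∈ Q) → ∀ x ∈ Q, U * x * U⁻¹ = x

theorem geom11 (h : FH p ω) (m : ℕ) :
    ∑ k ∈ range 11, (ω ^ m) ^ k = if m % 11 = 0 then 11 else 0 := by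
  split_ifs with e
  · rw [pow_eq_pow_mod m h.w, e]; simp
  · refine mul_left_cancel₀ (sub_ne_zero.2 (h.om_pow e)) ?_
    rw [mul_geom_sum, ← pow_mul, mul_comm, pow_mul, h.w]; simp

theorem comp_vec (h : FH p ω) {ι : Type*} (w : ι → ℕ) {W : Submodule F (ι → F)}
    (hW : ∀ v ∈ W, (fun i => ω ^ w i * v i) ∈ W) {v : ι → F} (hv : v ∈ W) (d : ℕ) :
    (fun i => if (w i + d) % 11 = 0 then v i else 0) ∈ W := by
  have k : ∀ k : ℕ, (fun i => (ω ^ w i) ^ k * v i) ∈ W := fun k => by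
    induction k with
    | zero => simpa using hv
    | succ k ih => simpa only [pow_succ', mul_assoc] using hW _ ih
  convert W.smul_mem 11⁻¹ (W.sum_mem fun j (_ : j ∈ range 11) => W.smul_mem ((ω ^ d) ^ j) (k j)) using 1
  ext i
  simp only [Pi.smul_apply, Finset.sum_apply, smul_eq_mul, ← mul_assoc, ← mul_pow, ← pow_add, ← sum_mul,
    geom11 h, add_comm d]
  split_ifs <;> simp [h.eleven]

theorem diag_of (h : FH p ω) {e : n → ℕ} (he : ∀ i j, e i % 11 = e j % 11 → i = j) {U : GL n F}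
    (hU : U.1 = diagonal fun i => ω ^ e i) {x : GL n F} (c : x * U = U * x) : x.1.IsDiag := fun i j hij => by
  have : (U.1 * x.1) i j = (x.1 * U.1) i j := by rw [← Units.val_mul, ← c, Units.val_mul]
  rw [hU, diagonal_mul, mul_diagonal, mul_comm (x.1 i j)] at this
  exact by_contra fun k => h.om_ne (fun d => hij (he i j (by omega))) (mul_right_cancel₀ k this)

theorem irr [Nonempty n] (h : FH p ω) {e : n → ℕ} (he : ∀ i j, e i % 11 = e j % 11 → i = j) {U f : GL n F}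
    (hU : U.1 = diagonal fun i => ω ^ e i) (hf : ∀ i j, f.1 i j ≠ 0) {O : Subgroup (GL n F)}
    (hO : IsPGroup p O) (iU : ∀ x ∈ O, U⁻¹ * x * U ∈ O) (iF : ∀ x ∈ O, f⁻¹ * x * f ∈ O) :
    ∀ x ∈ O, x = 1 := by
  haveI := h.finF
  haveI := h.char
  haveI := Fact.mk h.prime
  let W : Submodule F (n → F) :=
    { carrier := {v | ∀ x ∈ O, x.1 *ᵥ v = v}
      add_mem' := fun a b x hx => by rw [mulVec_add, a x hx, b x hx]
      zero_mem' := fun x _ => mulVec_zero _
      smul_mem' := fun c v a x hx => by rw [mulVec_smul, a x hx] }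
  have hW : ∀ g : GL n F, (∀ x ∈ O, g⁻¹ * x * g ∈ O) → ∀ v ∈ W, g.1 *ᵥ v ∈ W := fun g hg v hv x hx => by
    conv_rhs => rw [← hv _ (hg x hx)]
    rw [mulVec_mulVec, mulVec_mulVec, ← Units.val_mul, ← Units.val_mul]
    congr 2
    group
  have sg : ∀ v ∈ W, ∀ i, v i ≠ 0 → Pi.single i 1 ∈ W := fun v hv i k => by
    convert W.smul_mem (v i)⁻¹ (comp_vec h e (fun v hv => by
      convert hW U iU v hv using 1; ext i; rw [hU, mulVec_diagonal]) hv (10 * e i)) using 1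
    ext j
    by_cases d : j = i
    · subst d; simp [k, show (e j + 10 * e j) % 11 = 0 by omega]
    · simp [d, show ¬ (e j + 10 * e i) % 11 = 0 from fun c => d (he j i (by omega))]
  letI : MulAction O (n → F) :=
    { smul := fun x v => x.1.1 *ᵥ v
      one_smul := fun v => one_mulVec v
      mul_smul := fun x y v => (mulVec_mulVec _ _ _).symm }
  obtain ⟨v, hv, v0⟩ := hO.exists_fixed_point_of_prime_dvd_card_of_fixed_point (n → F)
    (by rw [Nat.card_pi, prod_const]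
        refine dvd_pow ?_ Fintype.card_pos.ne'
        rcases h.cd with k | k <;> simp [k.1]) (a := 0) fun x => mulVec_zero _
  obtain ⟨i, hi⟩ := Function.ne_iff.1 v0.symm
  refine fun x hx => Units.ext ?_
  ext k j
  simpa [one_apply, Pi.single_apply] using
    congrFun (sg _ (hW f iF _ (sg v (fun x hx => hv ⟨x, hx⟩) i hi)) j (by simp [hf]) x hx) k

theorem inv_sylow {G : Type*} [Group G] [Finite G] (φ : MulAut G) (h7 : φ ^ 11 = 1) (r : ℕ)
    [Fact r.Prime] (h : ¬ 11 ∣ Nat.card (Sylow r G)) : ∃ P : Sylow r G, ∀ x ∈ P, φ x ∈ P := by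
  haveI := Fact.mk (by norm_num : Nat.Prime 11)
  obtain ⟨P, hP⟩ := (IsPGroup.of_card_dvd_pow (p := 11) (n := 1) (G := zpowers φ) (by
    rw [Nat.card_zpowers]; exact orderOf_dvd_of_pow_eq_one h7)).nonempty_fixed_point_of_prime_not_dvd_card (Sylow r G) h
  refine ⟨P, fun x hx => ?_⟩
  rw [← show φ • P = P from hP ⟨φ, mem_zpowers φ⟩]
  exact smul_mem_pointwise_smul x φ P.1 hx

theorem prod_cop {G : Type*} [Group G] [Finite G] {A P : Subgroup G} (h : P.index.Coprime A.index) (g : G) :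
    ∃ a ∈ A, a⁻¹ * g ∈ P := by
  have k1 := MulAction.index_stabilizer A ((1 : G) : G ⧸ P)
  have k2 : MulAction.stabilizer A ((1 : G) : G ⧸ P) = P.subgroupOf A := by
    ext a
    rw [mem_subgroupOf]
    exact (SetLike.ext_iff.1 (MulAction.stabilizer_quotient P) a.1 :)
  have k3 : P.index ∣ P.relIndex A := h.dvd_of_dvd_mul_right (by
    rw [← inf_relIndex_right, relIndex_mul_index inf_le_right]; exact index_dvd_of_le inf_le_left)
  rw [k2] at k1
  have k4 := Set.eq_of_subset_of_ncard_le (Set.subset_univ (MulAction.orbit A ((1 : G) : G ⧸ P))) (by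
    rw [Set.ncard_univ, ← k1]; exact Nat.le_of_dvd (Nat.pos_of_ne_zero index_ne_zero_of_finite) k3)
  obtain ⟨a, ha⟩ := k4.ge (Set.mem_univ (g : G ⧸ P))
  exact ⟨a, a.2, by simpa using QuotientGroup.eq.1 (show ((a.1 * 1 : G) : G ⧸ P) = g from ha)⟩

variable {C : Type*} [Group C] [Finite C]

theorem scal_one [Nonempty n] (ι : C →* GL n F) (hn : Fintype.card n ≤ 6) {x y : C} {k : ℕ}
    (h1 : IsScal (ι (x * y * x⁻¹ * y⁻¹)).1) (h2 : (x * y * x⁻¹ * y⁻¹) ^ 11 ^ k = 1) :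
    ι (x * y * x⁻¹ * y⁻¹) = 1 := by
  obtain ⟨a, ha⟩ := h1
  have d : (ι (x * y * x⁻¹ * y⁻¹)).1.det = 1 := by
    have : GeneralLinearGroup.det (ι (x * y * x⁻¹ * y⁻¹)) = 1 := by
      simp only [map_mul, map_inv, mul_right_comm _ _ (GeneralLinearGroup.det (ι x))⁻¹]; simp
    exact congrArg Units.val this
  have e := congrArg (fun z => (ι z).1) h2
  simp only [map_pow, Units.val_pow_eq_pow_val, ha, map_one, Units.val_one, _root_.smul_pow, one_pow] at e
  obtain ⟨i⟩ := ‹Nonempty n›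
  have e2 : a ^ 11 ^ k = 1 := by simpa using congrFun (congrFun e i) i
  rw [ha, det_smul, det_one, mul_one] at d
  have := pow_gcd_eq_one.2 ⟨d, e2⟩
  rw [Nat.Coprime.pow_right k (Nat.coprime_comm.1 ((Nat.Prime.coprime_iff_not_dvd (by norm_num)).2 fun c => by
    have := Nat.le_of_dvd Fintype.card_pos c; omega)), pow_one] at this
  exact Units.ext (by rw [ha, this, one_smul]; rfl)

theorem LK (h : FH p ω) (fx : FixR p ω) (ru : C →* GL (Fin 5) F) (rv : C →* GL (Fin 6) F)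
    (inj : ∀ g, ru g = 1 → rv g = 1 → g = 1) {u f : C} {e5 : Fin 5 → ℕ} {e6 : Fin 6 → ℕ}
    (i5 : ∀ i j, e5 i % 11 = e5 j % 11 → i = j) (i6 : ∀ i j, e6 i % 11 = e6 j % 11 → i = j)
    (u5 : (ru u).1 = diagonal fun i => ω ^ e5 i) (u6 : (rv u).1 = diagonal fun i => ω ^ e6 i)
    (f5 : ∀ i j, (ru f).1 i j ≠ 0) (f6 : ∀ i j, (rv f).1 i j ≠ 0) {Λ : Subgroup C}
    (nu : u ∈ normalizer (Λ : Set C)) (nf : f ∈ normalizer (Λ : Set C))
    (E : ∀ x ∈ Λ, x * u = u * x → (∃ k, x ^ 11 ^ k = 1) → IsScal (ru x).1 ∧ IsScal (rv x).1) :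
    ∀ x ∈ Λ, IsScal (ru x).1 ∧ IsScal (rv x).1 := by
  haveI := Fact.mk h.prime
  haveI := Fact.mk (by norm_num : Nat.Prime 11)
  have ex : ∀ x y, ru x = ru y → rv x = rv y → x = y := fun x y a b =>
    mul_inv_eq_one.1 (inj _ (by simp [a]) (by simp [b]))
  have u11 : u ^ 11 = 1 := inj _ (Units.ext (by
    rw [map_pow, Units.val_pow_eq_pow_val, u5, diagonal_pow, Units.val_one, ← diagonal_one]
    congr 1; ext i
    simp [← pow_mul, mul_comm _ 11, pow_mul ω 11, h.w])) (Units.ext (by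
    rw [map_pow, Units.val_pow_eq_pow_val, u6, diagonal_pow, Units.val_one, ← diagonal_one]
    congr 1; ext i
    simp [← pow_mul, mul_comm _ 11, pow_mul ω 11, h.w]))
  let φ := Λ.normalizerMonoidHom ⟨u, nu⟩
  have φ7 : φ ^ 11 = 1 := by rw [← map_pow, show (⟨u, nu⟩ : normalizer _) ^ 11 = 1 from Subtype.ext u11, map_one]
  obtain ⟨P, hP⟩ := inv_sylow φ φ7 11 (not_dvd_card_sylow 11 Λ)
  have g11 : IsPGroup 11 (zpowers u ⊔ P.1.map Λ.subtype : Subgroup C) :=
    (IsPGroup.of_card_dvd_pow (n := 1) (by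
      rw [Nat.card_zpowers]; exact orderOf_dvd_of_pow_eq_one u11)).to_sup_of_normal_right' (P.isPGroup'.map _)
      (zpowers_le.2 (mem_normalizer_fintype (by rintro _ ⟨x, hx, rfl⟩; exact ⟨_, hP x hx, rfl⟩)))
  haveI := g11.isNilpotent
  have k11 : ∀ i, ∀ x ∈ Subgroup.upperCentralSeries (zpowers u ⊔ P.1.map Λ.subtype : Subgroup C) i, x.1 ∈ Λ →
      IsScal (ru x).1 ∧ IsScal (rv x).1 := fun i => by
    induction i with
    | zero => intro x hx _; rw [(mem_bot.1 hx : x = 1)]; exact ⟨⟨1, by simp⟩, 1, by simp⟩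
    | succ i ih =>
      intro x hx hx'
      have c := Subgroup.mem_upperCentralSeries_succ_iff.1 hx ⟨u, mem_sup_left (mem_zpowers u)⟩
      obtain ⟨c1, c2⟩ := ih _ c (show x.1 * u * x.1⁻¹ * u⁻¹ ∈ Λ by
        simpa only [mul_assoc] using Λ.mul_mem hx' ((mem_normalizer_iff.1 nu _).1 (Λ.inv_mem hx')))
      obtain ⟨k, hk⟩ := g11 (x * ⟨u, mem_sup_left (mem_zpowers u)⟩ * x⁻¹ * ⟨u, mem_sup_left (mem_zpowers u)⟩⁻¹)
      have := inj _ (scal_one ru (by simp) c1 (congrArg Subtype.val hk))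
        (scal_one rv (by simp) c2 (congrArg Subtype.val hk))
      rw [mul_inv_eq_one, mul_inv_eq_iff_eq_mul] at this
      exact E _ hx' this ((g11 x).imp fun k e => congrArg Subtype.val e)
  have cen : ∀ x ∈ P, ∀ y : C, x.1 * y = y * x.1 := fun x hx y => by
    obtain ⟨a, b⟩ := k11 _ ⟨x.1, mem_sup_right ⟨x, hx, rfl⟩⟩
      (Subgroup.upperCentralSeries_nilpotencyClass.ge (mem_top _)) x.2
    exact ex _ _ (by rw [map_mul, map_mul]; exact Units.ext (a.comm _))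
      (by rw [map_mul, map_mul]; exact Units.ext (b.comm _))
  have sy : ∀ (r : ℕ) [Fact r.Prime], ∃ Q : Sylow r Λ, ∀ x ∈ Q, φ x ∈ Q := fun r _ =>
    inv_sylow φ φ7 r fun d => P.not_dvd_index (d.trans (by
      rw [Sylow.card_eq_index_normalizer default]
      exact index_dvd_of_le fun x hx => mem_normalizer_fintype fun y hy => by
        rwa [show x * y * x⁻¹ = y from mul_inv_eq_iff_eq_mul.2 (Subtype.ext (cen x hx y))]))
  let A := φ.toMonoidHom.eqLocus (MonoidHom.id Λ)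
  obtain ⟨Q, hQ⟩ := sy p
  have cop : Q.1.index.Coprime A.index := Nat.coprime_of_dvd fun r hr d1 d2 => by
    haveI := Fact.mk hr
    by_cases r11 : r = 11
    · subst r11
      exact P.not_dvd_index (d2.trans (index_dvd_of_le fun x hx =>
        Subtype.ext (mul_inv_eq_iff_eq_mul.2 (cen x hx u).symm)))
    have rp : r ≠ p := by rintro rfl; exact Q.not_dvd_index d1
    obtain ⟨R, hR⟩ := sy r
    refine R.not_dvd_index (d2.trans (index_dvd_of_le fun x hx => Subtype.ext (ex (u * x * u⁻¹) _ ?_ ?_)))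
    · rw [map_mul, map_mul, map_inv]
      exact fx (by simp) e5 i5 u5 hr rp r11 (R.1.map (ru.comp Λ.subtype)) (R.isPGroup'.map _) (by
        rintro _ ⟨x, hx, rfl⟩; exact ⟨_, hR x hx, show ru (u * x * u⁻¹) = _ by simp⟩) _ ⟨x, hx, rfl⟩
    · rw [map_mul, map_mul, map_inv]
      exact fx (by simp) e6 i6 u6 hr rp r11 (R.1.map (rv.comp Λ.subtype)) (R.isPGroup'.map _) (by
        rintro _ ⟨x, hx, rfl⟩; exact ⟨_, hR x hx, show rv (u * x * u⁻¹) = _ by simp⟩) _ ⟨x, hx, rfl⟩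
  have q1 : ∀ g, g⁻¹ * φ g ∈ Q := fun g => by
    obtain ⟨a, ha, k⟩ := prod_cop cop g
    have := Q.mul_mem (Q.inv_mem k) (hQ _ k)
    rwa [map_mul, map_inv, show φ a = a from ha, show (a⁻¹ * g)⁻¹ * (a⁻¹ * φ g) = g⁻¹ * (a * a⁻¹) * φ g by group,
      mul_inv_cancel, mul_one] at this
  have q2 : ∀ g, g⁻¹ * φ g ∈ Q.1.normalCore := fun g y => by
    have := Q.mul_mem (q1 (g * y⁻¹)) (Q.inv_mem (q1 y⁻¹))
    rw [map_mul, map_inv] at this
    convert this using 1
    group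
  have q3 : ∀ w ∈ normalizer (Λ : Set C), ∀ x ∈ Q.1.normalCore, ∃ y ∈ Q.1.normalCore, y.1 = w⁻¹ * x * w :=
    fun w hw x hx => by
      let ψ := Λ.normalizerMonoidHom ⟨w, hw⟩⁻¹
      haveI := (Q.1.normalCore_normal).map ψ.toMonoidHom ψ.surjective
      exact ⟨ψ x, normal_le_normalCore.2 (((Q.isPGroup'.to_le Q.1.normalCore_le).map
        ψ.toMonoidHom).le_sylow_of_normal Q) ⟨x, hx, rfl⟩, show w⁻¹ * x * w⁻¹⁻¹ = _ by rw [inv_inv]⟩
  have q4 : ∀ {n : Type} [Fintype n] [DecidableEq n] (ι : C →* GL n F), ∀ w ∈ normalizer (Λ : Set C),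
      ∀ x ∈ Q.1.normalCore.map (ι.comp Λ.subtype), (ι w)⁻¹ * x * ι w ∈ Q.1.normalCore.map (ι.comp Λ.subtype) := by
    rintro n _ _ ι w hw _ ⟨x, hx, rfl⟩
    obtain ⟨y, a, b⟩ := q3 w hw x hx
    exact ⟨y, a, by simp [b]⟩
  have q5 : ∀ x ∈ Λ, x * u = u * x := fun x hx => by
    have := inj _ (irr h i5 u5 f5 ((Q.isPGroup'.to_le Q.1.normalCore_le).map _) (q4 ru u nu) (q4 ru f nf) _
      ⟨_, q2 ⟨x, hx⟩, rfl⟩) (irr h i6 u6 f6 ((Q.isPGroup'.to_le Q.1.normalCore_le).map _) (q4 rv u nu)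
        (q4 rv f nf) _ ⟨_, q2 ⟨x, hx⟩, rfl⟩)
    exact (mul_inv_eq_iff_eq_mul.1 (inv_mul_eq_one.1 (show x⁻¹ * (u * x * u⁻¹) = 1 from this)).symm).symm
  intro x hx
  have hy := q5 _ ((mem_normalizer_iff.1 nf x).1 hx)
  exact ⟨H2.S7.scal_of_diag f5 (diag_of h i5 u5 (by rw [← map_mul, q5 x hx, map_mul]))
      (diag_of h i5 u5 (by simpa only [map_mul, map_inv] using congrArg ru hy)),
    H2.S7.scal_of_diag f6 (diag_of h i6 u6 (by rw [← map_mul, q5 x hx, map_mul]))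
      (diag_of h i6 u6 (by simpa only [map_mul, map_inv] using congrArg rv hy))⟩

end Cfsg.Agent.H7.C11
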