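import Cfsg.Agent.H7.C11.Ker
import Cfsg.Agent.H8.C11.End

/-! Normal subgroups of odd order meet the centraliser of `σ` in scalars. -/

set_option autoImplicit false
set_option linter.unusedSimpArgs false
set_option linter.unusedSectionVars false
set_option linter.unusedVariables false
set_option linter.style.haveILetI false

namespace Cfsg.Agent.H7.C11

open Matrix Subgroup Cfsg.Agent.H5.C11 Cfsg.Agent.H7 Cfsg.Agent.H8.C11 Cfsg.Agent.H5.T3 Cfsg.Agent.H5.C5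

variable {F : Type*} [Field F] {p : ℕ} {ω : F} {M K : Subgroup (GL (Fin 11) F)}

theorem gauss (w : ω ^ 11 = 1) : ∃ G : F, Φ ω * uu ω ^ 5 * Φ ω = G • (uu ω ^ 6 * Φ ω * uu ω ^ 6) := by
  refine ⟨∑ l : Fin 11, (ω ^ ((l : ℕ) ^ 2 % 11)) ^ 5, ?_⟩
  ext j k
  rw [uu, diagonal_pow, diagonal_pow, Matrix.smul_apply, mul_diagonal, diagonal_mul, mul_apply,
    ← Equiv.sum_comp (Equiv.addRight (j + k)), smul_eq_mul, Finset.sum_mul]
  refine Finset.sum_congr rfl fun l _ => ?_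
  simp only [mul_diagonal, Φ, of_apply, Pi.pow_apply, ← pow_mul, ← pow_add, Equiv.coe_addRight]
  exact om_congr w (by revert j k l; decide +kernel)

theorem σ_odd {m : ℕ} (hm : Odd m) {y : M11 F} (hy : y ^ m = 1) (a : F) : σ ≠ a • y := fun e => by
  obtain ⟨k, rfl⟩ := hm
  have := congrArg (· ^ (2 * k + 1)) e
  simp only [_root_.smul_pow, hy] at this
  rw [pow_succ, pow_mul, sq, σσ, one_pow, Matrix.one_mul] at this
  exact σ_ne _ this

theorem nou (h : Hy p ω M) (nK : ∀ g ∈ M, ∀ x ∈ K, g * x * g⁻¹ ∈ K) {m : ℕ} (hm : Odd m)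
    (hK : ∀ x ∈ K, x ^ m = 1) : ¬ InM K (uu ω) := by
  rintro ⟨u, hu, e⟩
  obtain ⟨c, hc, f, hf, e'⟩ := h.hφ
  obtain ⟨G, hG⟩ := gauss h.one11
  have k1 : (f * u ^ 5 * f).1 = (c * G) • (u ^ 6 * f * u ^ 6).1 := by
    simp only [Units.val_mul, Units.val_pow_eq_pow_val, e, e', Matrix.mul_smul, Matrix.smul_mul, hG, smul_smul]
    congr 1; ring
  have k2 : f.1 = (c * G) • ((f * u ^ 5 * f⁻¹)⁻¹ * (u ^ 6 * (f * u ^ 6 * f⁻¹))).1 := by
    rw [show (f * u ^ 5 * f⁻¹)⁻¹ * (u ^ 6 * (f * u ^ 6 * f⁻¹)) =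
      (f * u ^ 5 * f⁻¹)⁻¹ * (u ^ 6 * f * u ^ 6) * f⁻¹ by group, Units.val_mul, Units.val_mul,
      ← Matrix.smul_mul, ← Matrix.mul_smul, ← k1, ← Units.val_mul, ← Units.val_mul]
    congr 1; group
  have k3 := K.mul_mem (K.inv_mem (nK f hf _ (K.pow_mem hu 5))) (K.mul_mem (K.pow_mem hu 6) (nK f hf _ (K.pow_mem hu 6)))
  generalize (f * u ^ 5 * f⁻¹)⁻¹ * (u ^ 6 * (f * u ^ 6 * f⁻¹)) = y at k2 k3
  refine σ_odd hm (y := (y * y).1) (by rw [← Units.val_pow_eq_pow_val, hK _ (K.mul_mem k3 k3)]; rfl)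
    (c * G * (c * G)) ?_
  rw [← h.φφ hc, ← e', k2, Matrix.smul_mul, Matrix.mul_smul, smul_smul, Units.val_mul]

theorem quad (w : ω ^ 11 = 1) {D : Fin 11 → F} {a b : ℕ} (h : ∀ j : Fin 11, D (j + 1) = ω ^ (b + a * j) * D j)
    (j : Fin 11) : D j = D 0 * ω ^ (6 * a * j ^ 2 + (b + 5 * a) * j) := by
  have k : ∀ n : ℕ, ∀ hn : n < 11, D ⟨n, hn⟩ = D 0 * ω ^ (6 * a * n ^ 2 + (b + 5 * a) * n) := fun n => by
    induction n with
    | zero => intro _; simp
    | succ n ih =>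
      intro hn
      rw [show (⟨n + 1, hn⟩ : Fin 11) = ⟨n, by omega⟩ + 1 from Fin.ext (by
        rw [Fin.val_add]; exact (Nat.mod_eq_of_lt hn).symm), h, ih,
        show 6 * a * (n + 1) ^ 2 + (b + 5 * a) * (n + 1) =
          11 * (a * n + a) + (b + a * n + (6 * a * n ^ 2 + (b + 5 * a) * n)) by ring, pow_add _ (11 * _),
        pow_mul, w, one_pow, one_mul, pow_add _ (b + _)]
      ring
  exact k j j.2

theorem τdτ (D : Fin 11 → F) : τ * diagonal D * τ' = diagonal fun j => D (j + 10) := by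
  ext i j
  rw [mulτ', τmul, diagonal_apply, diagonal_apply]
  simp only [add_left_inj]

theorem lin (h : Hy p ω M) (le : K ≤ M) (nK : ∀ g ∈ M, ∀ x ∈ K, g * x * g⁻¹ ∈ K) (hρ : InM K (ρ ω))
    (nu : ¬ InM K (uu ω)) {D : Fin 11 → F} (hD : InM K (diagonal D)) {μ : F} (D0 : ∀ j, D j ≠ 0)
    (hμ : ∀ j, D (j + 1) * (D (j + 1 + 10))⁻¹ = μ * (D j * (D (j + 10))⁻¹)) :
    ∃ l, ∀ j, D (j + 1) = l * D j := by
  have w := h.one11
  have pr : IsPrimitiveRoot ω 11 := by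
    haveI := Fact.mk (by norm_num : Nat.Prime 11)
    exact IsPrimitiveRoot.iff_orderOf.2 (orderOf_eq_prime w (fh_of h).w1)
  obtain ⟨t, ht, e⟩ := h.hτ
  have e' : (t⁻¹).1 = τ' := Units.inv_eq_of_mul_eq_one_right (e ▸ ττ')
  have sh : ∀ {D : Fin 11 → F}, InM K (diagonal D) → InM K (diagonal fun j => D (j + 10)) := by
    rintro D ⟨x, hx, k⟩
    exact ⟨_, nK t ht x hx, by rw [Units.val_mul, Units.val_mul, e, e', k, τdτ]⟩
  have dt : ∀ {D : Fin 11 → F}, InM K (diagonal D) → ∏ j, D j = 1 := by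
    rintro D ⟨x, hx, k⟩
    rw [← det_diagonal, ← k, h.det _ (le hx)]
  let C : Fin 11 → F := fun j => D j * (D (j + 10))⁻¹
  have c1 : ∀ j, D (j + 1) = C (j + 1) * D j := fun j => by
    simp only [C, show j + 1 + 10 = j by rw [add_assoc]; exact add_zero j, inv_mul_cancel_right₀ (D0 _)]
  have c0 : C 0 ≠ 0 := mul_ne_zero (D0 _) (inv_ne_zero (D0 _))
  have c2 : ∀ j : Fin 11, C j = μ ^ (j : ℕ) * C 0 := by
    have k : ∀ j, C (j + 1) = μ * C j := hμ
    have k1 := k 0; have k2 := k 1; have k3 := k 2; have k4 := k 3; have k5 := k 4; have k6 := k 5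
    have k7 := k 6; have k8 := k 7; have k9 := k 8; have k10 := k 9
    simp only [Fin.reduceAdd, zero_add] at k1 k2 k3 k4 k5 k6 k7 k8 k9 k10
    simp only [Fin.forall_fin_succ, Fin.succ_zero_eq_one, Fin.reduceSucc, k1, k2, k3, k4, k5, k6, k7, k8, k9, k10]
    simp [pow_succ', mul_assoc]
  have m11 : μ ^ 11 = 1 := mul_right_cancel₀ c0 (by
    have : C 0 = μ * C 10 := hμ 10
    rw [c2 10, show ((10 : Fin 11) : ℕ) = 10 from rfl] at this
    linear_combination -this)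
  have c11 : C 0 ^ 11 = 1 := by
    have := dt (hD.mul ((sh hD).inv (Y := diagonal fun j => (D (j + 10))⁻¹) (by
      rw [diagonal_mul_diagonal, ← diagonal_one]; congr 1; ext j; exact mul_inv_cancel₀ (D0 _))) |>.congr
      (diagonal_mul_diagonal _ _))
    rw [Finset.prod_congr rfl fun j _ => c2 j, Finset.prod_mul_distrib, Finset.prod_pow_eq_pow_sum,
      show ∑ j : Fin 11, (j : ℕ) = 11 * 5 by decide, pow_mul, m11] at this
    simpa using this
  obtain ⟨a, a11, rfl⟩ := pr.eq_pow_of_pow_eq_one m11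
  obtain ⟨b, -, hb⟩ := pr.eq_pow_of_pow_eq_one c11
  rcases a.eq_zero_or_pos with rfl | a0
  · exact ⟨C 0, fun j => by rw [c1, c2]; simp⟩
  have q := quad w (D := D) (a := a) (b := b + a) fun j => by
    rw [c1, show C (j + 1) = ω ^ a * C j from hμ j, c2, ← hb, ← pow_mul, ← pow_add, ← pow_add]
    congr 2; ring
  have d11 : D 0 ^ 11 = 1 := by
    have := dt hD
    rw [Finset.prod_congr rfl fun j _ => q j, Finset.prod_mul_distrib, Finset.prod_pow_eq_pow_sum,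
      Finset.sum_add_distrib, ← Finset.mul_sum, ← Finset.mul_sum, show ∑ j : Fin 11, (j : ℕ) = 11 * 5 by decide,
      show ∑ j : Fin 11, (j : ℕ) ^ 2 = 11 * 35 by decide, show 6 * a * (11 * 35) + (b + a + 5 * a) * (11 * 5) =
        11 * (6 * a * 35 + (b + a + 5 * a) * 5) by ring, pow_mul, w] at this
    simpa using this
  obtain ⟨c, -, hc⟩ := pr.eq_pow_of_pow_eq_one d11
  have z : InM K (diagonal fun _ : Fin 11 => ω) := (hρ.mul ((sh hρ).pow 10)).congr (by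
    rw [ρ, diagonal_pow, diagonal_mul_diagonal]
    congr 1; ext j
    rw [Pi.pow_apply, ← pow_mul, ← pow_add]
    exact (om_congr w (l := 1) (by revert j; decide)).trans (pow_one ω))
  obtain ⟨m, r, hm⟩ : ∃ m r, 6 * a * m = 11 * r + 1 := by
    have : ∀ a < 11, 0 < a → ∃ m < 11, 6 * a * m % 11 = 1 := by decide
    obtain ⟨m, -, k⟩ := this a a11 a0
    exact ⟨m, 6 * a * m / 11, by omega⟩
  refine (nu ((((hD.mul (z.pow (10 * c))).mul (hρ.pow (10 * (b + a + 5 * a)))).pow m).congr ?_)).elim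
  rw [ρ, diagonal_pow, diagonal_pow, diagonal_mul_diagonal, diagonal_mul_diagonal, diagonal_pow, uu]
  congr 1; ext j
  simp only [Pi.pow_apply]
  rw [q j, ← hc]
  simp only [← pow_mul, ← pow_add]
  refine om_congr w ?_
  rw [Nat.mod_mod, show (c + (6 * a * (j : ℕ) ^ 2 + (b + a + 5 * a) * j) + 10 * c + j * (10 * (b + a + 5 * a))) * m =
    6 * a * m * (j : ℕ) ^ 2 + 11 * (c * m + (b + a + 5 * a) * j * m) by ring, hm,
    show (11 * r + 1) * (j : ℕ) ^ 2 + 11 * (c * m + (b + a + 5 * a) * j * m) =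
      (j : ℕ) ^ 2 + 11 * (r * (j : ℕ) ^ 2 + c * m + (b + a + 5 * a) * j * m) by ring, Nat.add_mul_mod_self_left]

theorem lin' (h : Hy p ω M) (le : K ≤ M) (nK : ∀ g ∈ M, ∀ x ∈ K, g * x * g⁻¹ ∈ K) (hρ : InM K (ρ ω))
    (nu : ¬ InM K (uu ω)) {x : GL (Fin 11) F} (hx : x ∈ K) {D : Fin 11 → F} (hD : x.1 = diagonal D) {k : ℕ}
    (hk : x ^ 11 ^ k = 1) : ∃ l, ∀ j, D (j + 1) = l * D j := by
  haveI := h.fin
  haveI := Fact.mk (by norm_num : Nat.Prime 11)
  obtain ⟨t, ht, e⟩ := h.hτ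
  have e' : (t⁻¹).1 = τ' := Units.inv_eq_of_mul_eq_one_right (e ▸ ττ')
  have nz : ∀ {y : GL (Fin 11) F} {D : Fin 11 → F}, y.1 = diagonal D → ∀ j, D j ≠ 0 := fun {y D} k j d =>
    y.det_ne_zero (by rw [k, det_diagonal]; exact Finset.prod_eq_zero (Finset.mem_univ j) d)
  have iv : ∀ {y : GL (Fin 11) F} {D : Fin 11 → F}, y.1 = diagonal D → (y⁻¹).1 = diagonal fun j => (D j)⁻¹ :=
    fun {y D} k => Units.inv_eq_of_mul_eq_one_right (by
      rw [k, diagonal_mul_diagonal, ← diagonal_one]; congr 1; ext j; exact mul_inv_cancel₀ (nz k _))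
  let Γ : Subgroup (GL (Fin 11) F) :=
    { carrier := {y | ∃ D : Fin 11 → F, y.1 = diagonal D ∧ ∀ j, D j ^ 11 ^ k = 1}
      one_mem' := ⟨1, diagonal_one.symm, by simp⟩
      mul_mem' := fun ⟨D, a, b⟩ ⟨D', a', b'⟩ => ⟨fun j => D j * D' j,
        by rw [Units.val_mul, a, a', diagonal_mul_diagonal], fun j => by rw [mul_pow, b, b', one_mul]⟩
      inv_mem' := fun ⟨D, a, b⟩ => ⟨_, iv a, fun j => by rw [inv_pow, b, inv_one]⟩ }
  have g0 : IsPGroup 11 Γ := fun ⟨y, D, a, b⟩ => ⟨k, Subtype.ext (Units.ext (by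
    show y.1 ^ 11 ^ k = 1
    rw [a, diagonal_pow, ← diagonal_one]; congr 1; ext j; exact b j))⟩
  have g11 : IsPGroup 11 (zpowers t ⊔ Γ : Subgroup _) :=
    (IsPGroup.of_card_dvd_pow (n := 1) (by
      rw [Nat.card_zpowers]
      exact orderOf_dvd_of_pow_eq_one (Units.ext (by rw [pow_one, Units.val_pow_eq_pow_val, e, τ11]; rfl)))).to_sup_of_normal_right' g0
      (zpowers_le.2 (mem_normalizer_fintype fun y ⟨D, a, b⟩ =>
        ⟨_, by rw [Units.val_mul, Units.val_mul, e, e', a, τdτ], fun j => b _⟩))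
  haveI := g11.isNilpotent
  have k11 : ∀ i, ∀ y ∈ Subgroup.upperCentralSeries (zpowers t ⊔ Γ : Subgroup _) i, y.1 ∈ K →
      ∀ D : Fin 11 → F, y.1.1 = diagonal D → ∃ l, ∀ j, D (j + 1) = l * D j := fun i => by
    induction i with
    | zero =>
      intro y hy _ D a
      rw [(mem_bot.1 hy : y = 1)] at a
      have : ∀ j, D j = 1 := fun j => by simpa using (congrFun (congrFun a j) j).symm
      exact ⟨1, by simp [this]⟩
    | succ i ih =>
      intro y hy hy' D a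
      obtain ⟨μ, hμ⟩ := ih _ (Subgroup.mem_upperCentralSeries_succ_iff.1 hy ⟨t, mem_sup_left (mem_zpowers t)⟩)
        (show y.1 * t * y.1⁻¹ * t⁻¹ ∈ K by
          simpa only [mul_assoc] using K.mul_mem hy' (nK t ht _ (K.inv_mem hy')))
        (fun j => D j * (D (j + 10))⁻¹) (show (y.1 * t * y.1⁻¹ * t⁻¹).1 = _ by
          rw [mul_assoc, mul_assoc, ← mul_assoc t, Units.val_mul, Units.val_mul, Units.val_mul, e, e', iv a, τdτ, a,
            diagonal_mul_diagonal])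
      exact lin h le nK hρ nu ⟨_, hy', a⟩ (nz a) hμ
  exact k11 _ ⟨x, mem_sup_right ⟨D, hD, fun j => by
    have := congrArg Units.val hk
    rw [Units.val_pow_eq_pow_val, hD, diagonal_pow] at this
    simpa using congrFun (congrFun this j) j⟩⟩ (Subgroup.upperCentralSeries_nilpotencyClass.ge (mem_top _)) hx D hD

theorem odd (h : Hy p ω M) (hn : ¬ SLin M) : ODD ω M := by
  rintro O hO od ⟨r, r1, r2⟩ - c hc cσ
  have le : O.map M.subtype ≤ M := map_subtype_le O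
  have nK : ∀ g ∈ M, ∀ x ∈ O.map M.subtype, g * x * g⁻¹ ∈ O.map M.subtype := by
    rintro g hg _ ⟨x, hx, rfl⟩
    exact ⟨_, hO.conj_mem x hx ⟨g, hg⟩, rfl⟩
  have hK : ∀ x ∈ O.map M.subtype, x ^ Nat.card O = 1 := by
    rintro _ ⟨x, hx, rfl⟩
    exact congrArg (fun y : O => y.1.1) (pow_card_eq_one' (x := (⟨x, hx⟩ : O)))
  haveI : ((O.map M.subtype).subgroupOf (CC M)).Normal := ⟨fun x hx g => nK g g.2.1 x hx⟩
  obtain ⟨⟨a, ha⟩, b, hb⟩ := LK' h (Λ := (O.map M.subtype).subgroupOf (CC M)) (fun x hx cu ⟨k, hk⟩ => by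
    obtain ⟨D, d1, d2⟩ := T_oddA h hn x cu (Odd.pow (by decide)) hk
    obtain ⟨l, hl⟩ := lin' h le nK ⟨_, ⟨r, r1, rfl⟩, r2⟩ (nou h nK od hK) hx d1 (congrArg Subtype.val hk)
    have k1 := hl 0; have k2 := hl 1; have k3 := hl 2; have k4 := hl 3; have k5 := hl 4; have k6 := hl 5
    have k7 := d2 5
    simp only [Fin.reduceAdd, Fin.reduceMul, zero_add] at k1 k2 k3 k4 k5 k6 k7
    have d5 : D 5 ≠ 0 := fun d =>
      x.1.det_ne_zero (by rw [d1, det_diagonal]; exact Finset.prod_eq_zero (Finset.mem_univ 5) d)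
    have l1 : l = 1 := mul_right_cancel₀ d5 (by rw [← k6, k7, one_mul])
    have cst : ∀ j, D j = D 0 := fun j => by
      induction j using Fin.induction with
      | zero => rfl
      | succ j ih => rw [← ih, ← Fin.coeSucc_eq_succ, hl, l1, one_mul]
    refine ⟨⟨D 0, ?_⟩, D 0, ?_⟩
    · rw [ru_diag h.two d1, smul_one_eq_diagonal]; congr 1; ext i; exact cst _
    · rw [rv_diag h.two d1, smul_one_eq_diagonal]; congr 1; ext i
      exact Fin.cases rfl (fun i => cst _) i) ⟨c.1, mem_CC h.two c.2 cσ⟩ ⟨c, hc, rfl⟩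
  obtain ⟨a11, k | k⟩ := sc_sc h hn _ ha hb
  · exact ⟨a, k⟩
  · refine (σ_odd od (y := c.1.1) (by rw [← Units.val_pow_eq_pow_val, hK c.1 ⟨c, hc, rfl⟩]; rfl) (a ^ 10) ?_).elim
    rw [show c.1.1 = a • σ from k, smul_smul, ← pow_succ, a11, one_smul]

end Cfsg.Agent.H7.C11
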